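import Cfsg.Agent.H122.S5.FSix
import Cfsg.Agent.H46.MSTwist
import Cfsg.Agent.ChevalleyStructure.D4Twisted
import Cfsg.Agent.ChevalleyStructure.D4Perfect
import Cfsg.Agent.ChevalleyStructure.TwD4Card
import Cfsg.Agent.S1067
import Cfsg.Agent.S1071

/-!
# S2274, X2: `³D₄(q)` (helper122)

* `edat_fac_sub` : a quasisimple factor and a commuting subgroup;
* `edat_td4_two` : `e ∈ {1, 2}`: `SL₂(q) ∘ SL₂(q³)`;
* `edat_td4_three` : `e = 3`: `SL₃(q) ∘ (q² + q + 1)`.
-/

set_option autoImplicit false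
set_option linter.unusedSectionVars false

namespace Cfsg.Agent.H122.S5

open Subgroup Cfsg Cfsg.Lie Cfsg.Agent.ChevalleyStructure.Elts
open Cfsg.Agent.ChevalleyStructure Cfsg.Agent.ChevalleyStructure.D4Fixed
open scoped commutatorElement

universe u

/-- a factor and a commuting subgroup -/
theorem edat_fac_sub {S : Type*} [Group S] [Finite S] {p : ℕ} (hp : p.Prime) (hcen : center S = ⊥) {c d m : ℕ}
    (hc0 : c ≠ 0) (hd0 : d ≠ 0) {A T : Subgroup S} (hA : Fac p c A) (hT : PP p d (Nat.card T)) (hpd : p ∣ d)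
    (hc : ∀ a ∈ A, ∀ b ∈ T, a * b = b * a) (hpc : p ∣ c) (hS : Nat.card S ∣ c * d * m) (hm : ¬ p ∣ m) : EDat p S := by
  have hTne : T ≠ ⊥ := by
    rintro rfl
    have h1 : p ∣ Nat.card ↥(⊥ : Subgroup S) := by
      have := hT 1 (by rwa [pow_one])
      rwa [pow_one] at this
    rw [Subgroup.card_bot] at h1
    exact hp.one_lt.ne' (Nat.dvd_one.1 h1)
  refine ⟨A ⊔ T, A, ?_, ?_, hA.qs, hA.dvd hp hpc, card_lt hcen hTne hc⟩
  · refine index_of_pp hp (PP.trans (PP.trans (PP.of_dvd hS) ?_) (pp_sup hp hc (hA.inf hc)))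
    exact PP.cancel hp hm (PP.mul hp hc0 hd0 hA.pp hT)
  · refine sup_le le_normalizer (le_trans ?_ (centralizer_le_normalizer (A : Set S)))
    intro b hb
    rw [mem_centralizer_iff]
    intro a ha
    exact hc a ha b hb

section

variable {K : Type} [Field K]

theorem hD4 : InList chevD4 := by simp [InList]

/-- two commuting homomorphisms -/
theorem comm_ph {r s : ℕ} (hr : r < chevD4.nroots) (hs : s < chevD4.nroots)
    (h : comB chevD4 [r, chevD4.neg r] [s, chevD4.neg s] = true) (g g' : Matrix.SpecialLinearGroup (Fin 2) K) :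
    Commute (ph hD4 K hr g) (ph hD4 K hs g') := by
  have h1 : ph hD4 K hr g ∈ sub hD4 K [r, chevD4.neg r] := by rw [← range_ph hD4 K hr]; exact ⟨g, rfl⟩
  have h2 : ph hD4 K hs g' ∈ sub hD4 K [s, chevD4.neg s] := by rw [← range_ph hD4 K hs]; exact ⟨g', rfl⟩
  exact comm_of hD4 K h _ h1 _ h2

theorem mul_three {G : Type*} [Group G] {a a' b b' c c' : G} (h1 : Commute b a') (h2 : Commute c a')
    (h3 : Commute c b') : a * a' * (b * b') * (c * c') = a * b * c * (a' * b' * c') := by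
  simp only [mul_assoc]
  rw [← mul_assoc c a', h2.eq, mul_assoc a' c, ← mul_assoc c b', h3.eq, mul_assoc b' c, ← mul_assoc b a', h1.eq,
    mul_assoc a' b]

/-- the homomorphism `SL₂(q³) → D₄(q³)` -/
noncomputable def psi (φ : K →+* K) : Matrix.SpecialLinearGroup (Fin 2) K →* ↥(chevD4.group K) where
  toFun g := ph hD4 K (r := 18) (by decide) g * ph hD4 K (r := 13) (by decide) (Matrix.SpecialLinearGroup.map φ g) *
    ph hD4 K (r := 12) (by decide) (Matrix.SpecialLinearGroup.map (φ.comp φ) g)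
  map_one' := by simp only [map_one, mul_one]
  map_mul' a b := by
    simp only [map_mul]
    exact mul_three (comm_ph (K := K) (r := 13) (s := 18) (by decide) (by decide) (by decide +kernel)
      (Matrix.SpecialLinearGroup.map φ a) b) (comm_ph (K := K) (r := 12) (s := 18) (by decide) (by decide)
      (by decide +kernel) (Matrix.SpecialLinearGroup.map (φ.comp φ) a) b) (comm_ph (K := K) (r := 12) (s := 13)
      (by decide) (by decide) (by decide +kernel)
      (Matrix.SpecialLinearGroup.map (φ.comp φ) a) (Matrix.SpecialLinearGroup.map φ b))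

theorem ph_up {D : ChevalleyDatum} (hD : InList D) {F : Type u} [Field F] {r : ℕ} (hr : r < D.nroots) (t : F) :
    ph hD F hr (SL2Hom.up t) = xe hD F r t := Subtype.ext (Units.ext (SL2Hom.phi_upper _ _ t rfl))

theorem ph_lo {D : ChevalleyDatum} (hD : InList D) {F : Type u} [Field F] {r : ℕ} (hr : r < D.nroots) (t : F) :
    ph hD F hr (SL2Hom.lo t) = xe hD F (D.neg r) t := Subtype.ext (Units.ext (SL2Hom.phi_lower _ _ t rfl))

theorem map_up {F F' : Type*} [Field F] [Field F'] (f : F →+* F') (t : F) :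
    Matrix.SpecialLinearGroup.map f (SL2Hom.up t) = SL2Hom.up (f t) := by
  apply Subtype.ext
  rw [Matrix.SpecialLinearGroup.map_apply_coe]
  ext i j
  change f ((!![1, t; 0, 1] : Matrix (Fin 2) (Fin 2) F) i j) = (!![1, f t; 0, 1] : Matrix (Fin 2) (Fin 2) F') i j
  fin_cases i <;> fin_cases j <;> simp

theorem map_lo {F F' : Type*} [Field F] [Field F'] (f : F →+* F') (t : F) :
    Matrix.SpecialLinearGroup.map f (SL2Hom.lo t) = SL2Hom.lo (f t) := by
  apply Subtype.ext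
  rw [Matrix.SpecialLinearGroup.map_apply_coe]
  ext i j
  change f ((!![1, 0; t, 1] : Matrix (Fin 2) (Fin 2) F) i j) = (!![1, 0; f t, 1] : Matrix (Fin 2) (Fin 2) F') i j
  fin_cases i <;> fin_cases j <;> simp

theorem psi_up (φ : K →+* K) (t : K) : psi φ (SL2Hom.up t) =
    xe hD4 K 18 t * xe hD4 K 13 (φ t) * xe hD4 K 12 (φ (φ t)) := by
  change ph hD4 K _ _ * ph hD4 K _ _ * ph hD4 K _ _ = _
  rw [map_up, map_up, ph_up, ph_up, ph_up]
  rfl

theorem psi_lo (φ : K →+* K) (t : K) : psi φ (SL2Hom.lo t) =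
    xe hD4 K 5 t * xe hD4 K 10 (φ t) * xe hD4 K 11 (φ (φ t)) := by
  change ph hD4 K _ _ * ph hD4 K _ _ * ph hD4 K _ _ = _
  rw [map_lo, map_lo, ph_lo, ph_lo, ph_lo]
  rfl

/-- a homomorphism from `SL₂` into a subgroup -/
theorem range_le_of {k : Type*} [Field k] {G : Type*} [Group G] (π : Matrix.SpecialLinearGroup (Fin 2) k →* G)
    {S : Subgroup G} (h1 : ∀ t, π (SL2Hom.up t) ∈ S) (h2 : ∀ t, π (SL2Hom.lo t) ∈ S) : π.range ≤ S := by
  rw [MonoidHom.range_eq_map, Subgroup.map_le_iff_le_comap]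
  intro g _
  refine (Subgroup.closure_le _).2 ?_ (SL2Hom.mem_closure_SL2 g)
  rintro x (⟨t, rfl⟩ | ⟨t, rfl⟩)
  · exact h1 t
  · exact h2 t

theorem psi_mem {φ : K →+* K} {q : ℕ} (hφ : ∀ x, φ x = x ^ q) (g : Matrix.SpecialLinearGroup (Fin 2) K) :
    ((psi φ g : ↥(chevD4.group K)) : GL chevD4.Idx K) ∈ twistedD4 K q := by
  have h := range_le_of ((chevD4.group K).subtype.comp (psi φ)) (S := twistedD4 K q) (fun t => ?_) (fun t => ?_)
  · exact h ⟨g, rfl⟩
  · rw [MonoidHom.comp_apply, psi_up]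
    have h1 : wordG hD4 [(18, t), (13, t ^ q), (12, t ^ (q ^ 2))] ∈ twistedD4 K q :=
      H46.MS.xG_mem_genSubgroup hD4 (Or.inr ⟨t, (18, 13, 12), by decide, rfl⟩)
    rw [wordG_cons, wordG_cons, wordG_cons, wordG_nil, mul_one] at h1
    rw [hφ, hφ, ← pow_mul, ← pow_two, map_mul, map_mul, mul_assoc]
    exact h1
  · rw [MonoidHom.comp_apply, psi_lo]
    have h1 : wordG hD4 [(5, t), (10, t ^ q), (11, t ^ (q ^ 2))] ∈ twistedD4 K q :=
      H46.MS.xG_mem_genSubgroup hD4 (Or.inr ⟨t, (5, 10, 11), by decide, rfl⟩)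
    rw [wordG_cons, wordG_cons, wordG_cons, wordG_nil, mul_one] at h1
    rw [hφ, hφ, ← pow_mul, ← pow_two, map_mul, map_mul, mul_assoc]
    exact h1

open Cfsg.Agent.ChevalleyStructure.D4U Cfsg.Agent.ChevalleyStructure.D4NConj
  Cfsg.Agent.ChevalleyStructure.D4NCheck in
/-- the long root elements of the subfield -/
theorem long_mem {φ : K →+* K} {q : ℕ} (hφ : ∀ x, φ x = x ^ q) {K₀ : Type*} [Field K₀]
    (f : K₀ →+* K) (hf : ∀ t, f t ^ q = f t) (i j : Fin 3) (hij : i ≠ j) (t : K₀) :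
    H46.MS.rx hD4 f 14 22 23 i j t ∈ twistedD4 K q := by
  have hnb : nb K ∈ twistedD4 K q := nb_mem hφ
  have key : ∀ r ∈ [d4p2, d4m2], ∀ t : K₀, ChevalleyStructure.Elts.xG (F := K) hD4 r (f t) ∈ twistedD4 K q := by
    intro r hr t
    have : ChevalleyStructure.Elts.wordG (F := K) hD4 [(r, f t)] ∈ twistedD4 K q :=
      H46.MS.xG_mem_genSubgroup _ (Or.inl ⟨f t, hf t, r, hr, rfl⟩)
    rw [ChevalleyStructure.Elts.wordG_cons, ChevalleyStructure.Elts.wordG_nil, mul_one] at this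
    exact this
  have key2 : ∀ t : K₀, ChevalleyStructure.Elts.xG (F := K) hD4 22 (f t) ∈ twistedD4 K q := by
    intro t
    have h1 := key 14 (by decide) (-t)
    rw [H46.MS.xG_eq_D4] at h1 ⊢
    have h2 := H46.MS.nb_conj_14 (f (-t))
    rw [← neg_neg (f t), ← map_neg, ← h2]
    exact Subgroup.mul_mem _ (Subgroup.mul_mem _ hnb h1) (Subgroup.inv_mem _ hnb)
  have key3 : ∀ t : K₀, ChevalleyStructure.Elts.xG (F := K) hD4 1 (f t) ∈ twistedD4 K q := by
    intro t
    have h1 := key 9 (by decide) (-t)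
    rw [H46.MS.xG_eq_D4] at h1 ⊢
    have h2 := H46.MS.nb_conj_9 (f (-t))
    rw [← neg_neg (f t), ← map_neg, ← h2]
    exact Subgroup.mul_mem _ (Subgroup.mul_mem _ hnb h1) (Subgroup.inv_mem _ hnb)
  have hst := H46.MS.rx_stein hD4 f H46.MS.isA2_D4
  have m01 : ∀ t, H46.MS.rx hD4 f 14 22 23 0 1 t ∈ twistedD4 K q := key 14 (by decide)
  have m10 : ∀ t, H46.MS.rx hD4 f 14 22 23 1 0 t ∈ twistedD4 K q := key 9 (by decide)
  have m12 : ∀ t, H46.MS.rx hD4 f 14 22 23 1 2 t ∈ twistedD4 K q := key2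
  have m21 : ∀ t, H46.MS.rx hD4 f 14 22 23 2 1 t ∈ twistedD4 K q := key3
  have m02 : ∀ t : K₀, H46.MS.rx hD4 f 14 22 23 0 2 t ∈ twistedD4 K q := by
    intro t
    have := hst.br 0 1 2 (by decide) (by decide) (by decide) 1 t
    rw [one_mul] at this
    rw [← this, commutatorElement_def]
    exact mul_mem (mul_mem (mul_mem (m01 1) (m12 t)) (inv_mem (m01 1))) (inv_mem (m12 t))
  have m20 : ∀ t : K₀, H46.MS.rx hD4 f 14 22 23 2 0 t ∈ twistedD4 K q := by
    intro t
    have := hst.br 2 1 0 (by decide) (by decide) (by decide) 1 t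
    rw [one_mul] at this
    rw [← this, commutatorElement_def]
    exact mul_mem (mul_mem (mul_mem (m21 1) (m10 t)) (inv_mem (m21 1))) (inv_mem (m10 t))
  fin_cases i <;> fin_cases j
  · exact absurd rfl hij
  · exact m01 t
  · exact m02 t
  · exact m10 t
  · exact absurd rfl hij
  · exact m12 t
  · exact m20 t
  · exact m21 t
  · exact absurd rfl hij

/-! ### `e = 1, 2` -/

section

variable {φ : K →+* K} {q : ℕ} (hφ : ∀ x, φ x = x ^ q)

/-- `SL₂(q³) → ³D₄(q)` -/
noncomputable def pi2 : Matrix.SpecialLinearGroup (Fin 2) K →* ↥(twistedD4 K q) :=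
  ((chevD4.group K).subtype.comp (psi φ)).codRestrict (twistedD4 K q) fun g => psi_mem hφ g

variable {K₀ : Type} [Field K₀] (f : K₀ →+* K) (hf : ∀ t, f t ^ q = f t)

/-- `SL₂(q) → ³D₄(q)` -/
noncomputable def pi1 : Matrix.SpecialLinearGroup (Fin 2) K₀ →* ↥(twistedD4 K q) :=
  ((chevD4.group K).subtype.comp ((ph hD4 K (r := 23) (by decide)).comp (Matrix.SpecialLinearGroup.map f))).codRestrict
    (twistedD4 K q) fun g => by
    have h := range_le_of ((chevD4.group K).subtype.comp ((ph hD4 K (r := 23) (by decide)).comp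
      (Matrix.SpecialLinearGroup.map f))) (S := twistedD4 K q) (fun t => ?_) (fun t => ?_)
    · exact h ⟨g, rfl⟩
    · rw [MonoidHom.comp_apply, MonoidHom.comp_apply, map_up, ph_up]
      exact long_mem hφ f hf 0 2 (by decide) t
    · rw [MonoidHom.comp_apply, MonoidHom.comp_apply, map_lo, ph_lo]
      exact long_mem hφ f hf 2 0 (by decide) t

theorem pi_comm (g : Matrix.SpecialLinearGroup (Fin 2) K₀) (g' : Matrix.SpecialLinearGroup (Fin 2) K) :
    pi1 hφ f hf g * pi2 hφ g' = pi2 hφ g' * pi1 hφ f hf g := by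
  apply Subtype.ext
  have h1 := comm_ph (K := K) (r := 23) (s := 18) (by decide) (by decide) (by decide +kernel)
    (Matrix.SpecialLinearGroup.map f g) g'
  have h2 := comm_ph (K := K) (r := 23) (s := 13) (by decide) (by decide) (by decide +kernel)
    (Matrix.SpecialLinearGroup.map f g) (Matrix.SpecialLinearGroup.map φ g')
  have h3 := comm_ph (K := K) (r := 23) (s := 12) (by decide) (by decide) (by decide +kernel)
    (Matrix.SpecialLinearGroup.map f g) (Matrix.SpecialLinearGroup.map (φ.comp φ) g')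
  have h4 := congrArg (fun x : ↥(chevD4.group K) => (x : GL chevD4.Idx K)) ((h1.mul_right h2).mul_right h3).eq
  exact h4

end

theorem pi2_up {φ : K →+* K} {q : ℕ} (hφ : ∀ x, φ x = x ^ q) (t : K) :
    ((pi2 hφ (SL2Hom.up t) : ↥(twistedD4 K q)) : GL chevD4.Idx K) = X φ t := by
  change ((psi φ (SL2Hom.up t) : ↥(chevD4.group K)) : GL chevD4.Idx K) = _
  rw [psi_up]
  rfl

theorem pi1_up {φ : K →+* K} {q : ℕ} (hφ : ∀ x, φ x = x ^ q) {K₀ : Type} [Field K₀] (f : K₀ →+* K)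
    (hf : ∀ t, f t ^ q = f t) (t : K₀) :
    ((pi1 hφ f hf (SL2Hom.up t) : ↥(twistedD4 K q)) : GL chevD4.Idx K) = ChevalleyStructure.Elts.xG hD4 23 (f t) := by
  change ((ph hD4 K (r := 23) (by decide) (Matrix.SpecialLinearGroup.map f (SL2Hom.up t)) : ↥(chevD4.group K)) :
      GL chevD4.Idx K) = _
  rw [map_up, ph_up]
  rfl

theorem pi2_inj {φ : K →+* K} {q : ℕ} (hφ : ∀ x, φ x = x ^ q) {s t : K}
    (h : pi2 hφ (SL2Hom.up s) = pi2 hφ (SL2Hom.up t)) : s = t := by
  have h1 := congrArg Subtype.val h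
  rw [pi2_up, pi2_up] at h1
  exact TwD4Card.X_inj h1

theorem pi2_up_zero {φ : K →+* K} {q : ℕ} (hφ : ∀ x, φ x = x ^ q) : pi2 hφ (SL2Hom.up (0 : K)) = 1 := by
  have : SL2Hom.up (0 : K) = 1 := by
    apply Subtype.ext
    ext i j
    change (!![1, 0; 0, 1] : Matrix (Fin 2) (Fin 2) K) i j = (1 : Matrix (Fin 2) (Fin 2) K) i j
    fin_cases i <;> fin_cases j <;> simp
  rw [this, map_one]

theorem fac_sl2 {k : Type*} [Field k] [Fintype k] {Q : ℕ} (hQ : Fintype.card k = Q) (h4 : 4 ≤ Q) {S : Type*} [Group S]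
    [Finite S] {p : ℕ} (hp : p.Prime) (h5 : 5 ≤ p) (π : Matrix.SpecialLinearGroup (Fin 2) k →* S)
    (hπ : ∃ t, π (SL2Hom.up t) ≠ 1) : Fac p (Q ^ 2 - 1) π.range := by
  obtain ⟨t, ht⟩ := hπ
  refine fac_range hp (SignalizersComponents.SLQuasisimple.isQuasisimple_two (by
    rw [Nat.card_eq_fintype_card, hQ]; exact h4)) (not_dvd_center k hp fun h => ?_) ?_ _ ⟨SL2Hom.up t, ht⟩
  · exact absurd (Nat.le_of_dvd (by norm_num) h) (by omega)
  · rw [H953.card_SL 2 (by norm_num), hQ, show Finset.Icc 2 2 = {2} from rfl, Finset.prod_singleton]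
    exact Dvd.intro_left _ rfl

theorem four_le_q {p q e : ℕ} (hp : p.Prime) (h5 : 5 ≤ p) (hq2 : 2 ≤ q) (he : orderOf ((q : ℕ) : ZMod p) = e)
    (he2 : e ∣ 2) : 4 ≤ q := by
  have h1 : p ∣ q ^ 2 - 1 := (dvd_iff (by omega) he 2).2 he2
  have h2 : q ^ 2 - 1 = (q - 1) * (q + 1) := by
    obtain ⟨t, rfl⟩ := Nat.exists_eq_add_of_le' hq2
    rw [show t + 2 - 1 = t + 1 by omega, show (t + 2) ^ 2 = (t + 1) * (t + 2 + 1) + 1 by ring]
    rfl
  rw [h2, hp.dvd_mul] at h1
  rcases h1 with h1 | h1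
  · have := Nat.le_of_dvd (by omega) h1
    omega
  · have := Nat.le_of_dvd (by omega) h1
    omega

/-- **`³D₄(q)`, `e ∈ {1, 2}`** -/
theorem edat_td4_two [Fintype K] {p q e : ℕ} (hq : IsPrimePow q) (hK : Fintype.card K = q ^ 3)
    (hp : p.Prime) (h5 : 5 ≤ p) (he : orderOf ((q : ℕ) : ZMod p) = e) (he2 : e ∣ 2) :
    EDat p ↥(twistedD4 K q) := by
  obtain ⟨φ, hφ⟩ := exists_frob hq hK
  obtain ⟨k, _, _, f, hk, hf⟩ := Cfsg.Agent.H343.exists_subfield K hq three_ne_zero hK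
  have hfin : Finite ↥(twistedD4 K q) := by
    have : Finite (GL chevD4.Idx K) := inferInstance
    infer_instance
  have hq2 := hq.two_le
  have hq4 : 4 ≤ q := four_le_q hp h5 hq2 he he2
  have hA : Fac p ((q ^ 3) ^ 2 - 1) (pi2 hφ).range := by
    refine fac_sl2 hK ?_ hp h5 _ ⟨1, fun h => ?_⟩
    · exact hq4.trans (Nat.le_self_pow (by norm_num) q)
    · exact one_ne_zero (pi2_inj hφ (h.trans (pi2_up_zero hφ).symm))
  have hB : Fac p (q ^ 2 - 1) (pi1 hφ f hf).range := by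
    refine fac_sl2 hk hq4 hp h5 _ ⟨1, fun h => ?_⟩
    have h1 : ((pi1 hφ f hf (SL2Hom.up 1) : ↥(twistedD4 K q)) : GL chevD4.Idx K) = 1 := congrArg Subtype.val h
    rw [pi1_up, map_one] at h1
    exact one_ne_zero ((xG_eq_one_iff hD4 (by decide) _).1 h1)
  refine edat_fac_sub hp (center_bot (S1071.result hq hK)) ?_ ?_ hA hB.pp ?_ ?_ ?_ (m := q ^ 12 * (q ^ 8 + q ^ 4 + 1)) ?_ ?_
  · rw [← pow_mul]; exact pow_sub_ne hq2 (by norm_num)
  · exact pow_sub_ne hq2 (by norm_num)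
  · exact (dvd_iff (by omega) he 2).2 he2
  · rintro _ ⟨g', rfl⟩ _ ⟨g, rfl⟩
    exact (pi_comm hφ f hf g g').symm
  · rw [← pow_mul]
    exact (dvd_iff (by omega) he 6).2 (he2.trans (by norm_num))
  · rw [S1067.result hq hK, ← pow_mul]
    exact ⟨1, by ring⟩
  · intro h
    rcases hp.dvd_mul.1 h with h | h
    · exact not_dvd_q hp he (Nat.pos_of_dvd_of_pos he2 (by norm_num)) 12 h
    · have h1 : p ∣ q ^ 4 - 1 := (dvd_iff (by omega) he 4).2 (he2.trans (by norm_num))
      have h2 : p ∣ q ^ 8 - 1 := (dvd_iff (by omega) he 8).2 (he2.trans (by norm_num))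
      have h3 := Nat.dvd_sub h (h1.add h2)
      have h4 : 1 ≤ q ^ 4 := Nat.one_le_pow _ _ (by omega)
      have h8 : 1 ≤ q ^ 8 := Nat.one_le_pow _ _ (by omega)
      rw [show q ^ 8 + q ^ 4 + 1 - (q ^ 4 - 1 + (q ^ 8 - 1)) = 3 by omega] at h3
      have := Nat.le_of_dvd (by norm_num) h3
      omega

/-! ### `e = 3` -/

section

open Cfsg.Agent.ChevalleyStructure.D4NConj Cfsg.Agent.ChevalleyStructure.D4NCheck
  Cfsg.Agent.ChevalleyStructure.D4Perfect Cfsg.Agent.ChevalleyStructure.D4Comm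

variable {φ : K →+* K} {q : ℕ} (hφ : ∀ x, φ x = x ^ q)

theorem hR_mul {r : ℕ} (hr : r < 24) (s t : Kˣ) : hR r ((s * t : Kˣ) : K) = hR r (s : K) * hR r (t : K) := by
  rw [hR_eq_torG hr, hR_eq_torG hr, hR_eq_torG hr, torG_mul]
  congr 1
  funext i
  rw [Pi.mul_apply, mul_zpow]

theorem hR_comm {r s : ℕ} (hr : r < 24) (hs : s < 24) (a b : Kˣ) : Commute (hR r (a : K)) (hR s (b : K)) := by
  rw [Commute, SemiconjBy, hR_eq_torG hr, hR_eq_torG hs, torG_mul, torG_mul, mul_comm]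

/-- the torus `h₁(c) h₃(c^q) h₄(c^{q²})` -/
noncomputable def tau : Kˣ →* ↥(twistedD4 K q) where
  toFun c := ⟨hA φ (c : K), hA_mem hφ _⟩
  map_one' := by
    apply Subtype.ext
    change hA φ ((1 : Kˣ) : K) = 1
    have h : ∀ r < 24, hR r ((1 : Kˣ) : K) = 1 := fun r hr => by
      have := hR_mul (K := K) hr 1 1
      rw [mul_one] at this
      exact mul_eq_left.1 this.symm
    unfold hA
    rw [Units.val_one, map_one, map_one]
    rw [← Units.val_one, h 18 (by norm_num), h 13 (by norm_num), h 12 (by norm_num), mul_one, mul_one]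
  map_mul' c d := by
    apply Subtype.ext
    change hA φ ((c * d : Kˣ) : K) = hA φ (c : K) * hA φ (d : K)
    have e1 : ∀ x : Kˣ, φ (x : K) = ((Units.map (φ : K →* K) x : Kˣ) : K) := fun _ => rfl
    unfold hA
    rw [e1, e1 c, e1 d, e1, e1 (Units.map _ c), e1 (Units.map _ d), map_mul, map_mul, hR_mul (by norm_num),
      hR_mul (by norm_num), hR_mul (by norm_num)]
    exact mul_three (hR_comm (by norm_num) (by norm_num) _ _) (hR_comm (by norm_num) (by norm_num) _ _)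
      (hR_comm (by norm_num) (by norm_num) _ _)

theorem tau_eq_one {c : Kˣ} (h : tau hφ c = 1) : c ^ 2 = 1 := by
  have h1 : hA φ (c : K) = 1 := congrArg Subtype.val h
  have h2 := hA_conj_X (φ := φ) c.ne_zero 1
  rw [h1, one_mul, inv_one, mul_one, mul_one] at h2
  have h3 := TwD4Card.X_inj h2
  apply Units.ext
  rw [Units.val_pow_eq_pow_val, Units.val_one]
  exact h3.symm

include hφ in
theorem tau_fix {c : Kˣ} (hc : c ^ (q ^ 2 + q + 1) = 1) {s : ℕ} (hs : s < 24) {a : ℤ}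
    (h1 : SparseHDiag.cartanRS chevD4 18 s = a) (h2 : SparseHDiag.cartanRS chevD4 13 s = a)
    (h3 : SparseHDiag.cartanRS chevD4 12 s = a) (u : K) :
    hA φ (c : K) * xG s u * (hA φ (c : K))⁻¹ = xG s u := by
  rw [hA_conj hs c.ne_zero, h1, h2, h3, hφ, hφ, ← mul_assoc, ← mul_assoc, ← mul_zpow, ← mul_zpow, ← pow_mul,
    ← pow_succ', ← pow_add]
  have h4 : (c : K) ^ (q + 1 + q * q) = 1 := by
    rw [← Units.val_pow_eq_pow_val, show q + 1 + q * q = q ^ 2 + q + 1 by ring, hc, Units.val_one]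
  rw [h4, one_zpow, one_mul]

theorem cartan_eq : ∀ i j : Fin 3, i ≠ j → H46.MS.rt chevD4 14 22 23 i j < 24 ∧
    SparseHDiag.cartanRS chevD4 13 (H46.MS.rt chevD4 14 22 23 i j) =
      SparseHDiag.cartanRS chevD4 18 (H46.MS.rt chevD4 14 22 23 i j) ∧
    SparseHDiag.cartanRS chevD4 12 (H46.MS.rt chevD4 14 22 23 i j) =
      SparseHDiag.cartanRS chevD4 18 (H46.MS.rt chevD4 14 22 23 i j) := by decide +kernel

theorem exists_unit [Fintype K] (hq2 : 2 ≤ q) (hK : Fintype.card K = q ^ 3) :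
    ∃ h : Kˣ, orderOf h = q ^ 2 + q + 1 := by
  obtain ⟨g, hg⟩ := IsCyclic.exists_ofOrder_eq_natCard (α := Kˣ)
  have hc : Nat.card Kˣ = (q ^ 2 + q + 1) * (q - 1) := by
    classical
    rw [Nat.card_eq_fintype_card, Fintype.card_units, hK]
    obtain ⟨t, rfl⟩ := Nat.exists_eq_add_of_le' hq2
    rw [show t + 2 - 1 = t + 1 by omega]
    have : (t + 2) ^ 3 = ((t + 2) ^ 2 + (t + 2) + 1) * (t + 1) + 1 := by ring
    rw [this]
    rfl
  refine ⟨g ^ (q - 1), ?_⟩
  rw [orderOf_pow_of_dvd (by omega) (by rw [hg, hc]; exact Dvd.intro_left _ rfl), hg, hc]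
  exact Nat.mul_div_cancel _ (by omega)

/-- **`³D₄(q)`, `e = 3`** -/
theorem edat_td4_three [Fintype K] {p : ℕ} (hq : IsPrimePow q) (hK : Fintype.card K = q ^ 3)
    (hp : p.Prime) (h5 : 5 ≤ p) (he : orderOf ((q : ℕ) : ZMod p) = 3) : EDat p ↥(twistedD4 K q) := by
  obtain ⟨φ, hφ⟩ := exists_frob hq hK
  obtain ⟨k, _, _, f, hk, hf⟩ := Cfsg.Agent.H343.exists_subfield K hq three_ne_zero hK
  have hfin : Finite ↥(twistedD4 K q) := by
    have : Finite (GL chevD4.Idx K) := inferInstance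
    infer_instance
  have hq2 := hq.two_le
  obtain ⟨π, hπ1, hπ2⟩ := H46.MS.exists_sl_three hD4 f H46.MS.isA2_D4
  have hmem : π.range ≤ twistedD4 K q := by
    rw [hπ1, Subgroup.closure_le]
    rintro g ⟨i, j, hij, t, rfl⟩
    exact long_mem hφ f hf i j hij t
  let π' : Matrix.SpecialLinearGroup (Fin 3) k →* ↥(twistedD4 K q) := π.codRestrict _ fun g => hmem ⟨g, rfl⟩
  have hne : ∃ x, π' x ≠ 1 := by
    by_contra hcon
    push Not at hcon
    have h01 : (0 : Fin 3) ≠ 1 := by decide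
    have h1 := hπ2 (x := Matrix.SpecialLinearGroup.transvection h01 1) (congrArg Subtype.val (hcon _))
    have h2 : π.range = ⊥ := by
      rw [eq_bot_iff]
      rintro _ ⟨x, rfl⟩
      exact congrArg Subtype.val (hcon x)
    have h3 : H46.MS.rx hD4 f 14 22 23 0 1 1 ∈ (⊥ : Subgroup (GL chevD4.Idx K)) := by
      rw [← h2, hπ1]
      exact Subgroup.subset_closure ⟨0, 1, h01, 1, rfl⟩
    have h4 := Subgroup.mem_bot.1 h3
    unfold H46.MS.rx at h4
    rw [map_one, ChevalleyStructure.Elts.xG_eq_one_iff hD4 (H46.MS.isA2_D4.lt 0 1 (by decide))] at h4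
    exact one_ne_zero h4
  have hFA : Fac p ((q ^ 3 - 1) ^ 1) π'.range :=
    fac_range hp (SignalizersComponents.SLQuasisimple.isQuasisimple_of_three_le (by rw [Fintype.card_fin]))
      (not_dvd_center k hp (not_dvd_23 hp h5 (by norm_num))) (sl_dvd hk (by norm_num) (by norm_num) le_rfl) π' hne
  obtain ⟨h, hh⟩ := exists_unit hq2 hK
  let T : Subgroup ↥(twistedD4 K q) := Subgroup.zpowers (tau hφ h)
  have hT : PP p (q ^ 2 + q + 1) (Nat.card T) := by
    apply PP.of_dvd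
    rw [Nat.card_zpowers]
    have h1 : h ^ (2 * orderOf (tau hφ h)) = 1 := by
      rw [mul_comm, pow_mul]
      refine tau_eq_one hφ ?_
      rw [map_pow, pow_orderOf_eq_one]
    have h2 := orderOf_dvd_of_pow_eq_one h1
    rw [hh] at h2
    refine Nat.Coprime.dvd_of_dvd_mul_left ?_ h2
    have h3 : Odd (q ^ 2 + q + 1) := by
      have : Even (q ^ 2 + q) := by
        rw [pow_two, show q * q + q = q * (q + 1) by ring]
        exact Nat.even_mul_succ_self q
      exact this.add_one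
    exact h3.coprime_two_right
  have hcomm : ∀ a ∈ π'.range, ∀ b ∈ T, a * b = b * a := by
    have h1 : π.range ≤ Subgroup.centralizer {hA φ (h : K)} := by
      rw [hπ1, Subgroup.closure_le]
      rintro g ⟨i, j, hij, t, rfl⟩
      rw [SetLike.mem_coe, Subgroup.mem_centralizer_iff]
      intro y hy
      rw [Set.mem_singleton_iff.1 hy]
      obtain ⟨c1, c2, c3⟩ := cartan_eq i j hij
      have h2 := tau_fix hφ (c := h) (by rw [← hh, pow_orderOf_eq_one]) c1 rfl c2 c3 (f t)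
      rw [← H46.MS.xG_eq_D4 hD4] at h2
      have h3 := mul_inv_eq_iff_eq_mul.1 h2
      exact h3
    have h2 : T ≤ Subgroup.centralizer (π'.range : Set ↥(twistedD4 K q)) := by
      refine Subgroup.zpowers_le.2 ?_
      rw [Subgroup.mem_centralizer_iff]
      rintro _ ⟨x, rfl⟩
      apply Subtype.ext
      exact ((Subgroup.mem_centralizer_iff.1 (h1 ⟨x, rfl⟩)) _ rfl).symm
    intro a ha b hb
    exact (Subgroup.mem_centralizer_iff.1 (h2 hb)) a ha
  have hdvd : p ∣ q ^ 2 + q + 1 := by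
    have h1 : p ∣ q ^ 3 - 1 := (dvd_iff (by omega) he 3).2 dvd_rfl
    have h2 : q ^ 3 - 1 = (q ^ 2 + q + 1) * (q - 1) := by
      obtain ⟨t, rfl⟩ := Nat.exists_eq_add_of_le' hq2
      rw [show t + 2 - 1 = t + 1 by omega]
      have : (t + 2) ^ 3 = ((t + 2) ^ 2 + (t + 2) + 1) * (t + 1) + 1 := by ring
      rw [this]
      rfl
    rw [h2, hp.dvd_mul] at h1
    refine h1.resolve_right fun h3 => ?_
    have h4 := (dvd_iff (by omega) he 1).1 (by rwa [pow_one])
    omega
  refine edat_fac_sub hp (center_bot (S1071.result hq hK)) (pow_ne_zero _ (pow_sub_ne hq2 (by norm_num)))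
    (by positivity) hFA hT hdvd hcomm (dvd_pow ((dvd_iff (by omega) he 3).2 dvd_rfl) one_ne_zero)
    (m := q ^ 12 * (q ^ 2 - 1) * (q ^ 3 + 1) * (q * (q - 1) + 1) * (q ^ 2 * (q ^ 2 - 1) + 1)) ?_ ?_
  · rw [S1067.result hq hK]
    refine ⟨1, ?_⟩
    have h6 : q ^ 6 - 1 = (q ^ 3 - 1) * (q ^ 3 + 1) := by
      have := Nat.mul_self_sub_mul_self_eq (q ^ 3) 1
      rw [mul_comm, ← this, one_mul]
      congr 1
      ring
    have h8 : q ^ 8 + q ^ 4 + 1 = (q ^ 2 + q + 1) * (q * (q - 1) + 1) * (q ^ 2 * (q ^ 2 - 1) + 1) := by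
      obtain ⟨t, rfl⟩ := Nat.exists_eq_add_of_le' (show 1 ≤ q by omega)
      rw [show t + 1 - 1 = t by omega, show (t + 1) ^ 2 - 1 = t ^ 2 + 2 * t by
        rw [show (t + 1) ^ 2 = t ^ 2 + 2 * t + 1 by ring]; rfl]
      ring
    rw [h6, h8]
    ring
  · have h3 : ¬ p ∣ q ^ 3 + 1 := not_dvd_add (by omega) (by omega) he (Or.inl dvd_rfl)
    have h6 : ¬ p ∣ q ^ 6 + 1 := not_dvd_add (by omega) (by omega) he (Or.inl (by norm_num))
    intro h
    rcases hp.dvd_mul.1 h with h | h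
    · rcases hp.dvd_mul.1 h with h | h
      · rcases hp.dvd_mul.1 h with h | h
        · rcases hp.dvd_mul.1 h with h | h
          · exact not_dvd_q hp he (by norm_num) 12 h
          · have := (dvd_iff (by omega) he 2).1 h
            omega
        · exact h3 h
      · apply h3
        have : q ^ 3 + 1 = (q * (q - 1) + 1) * (q + 1) := by
          obtain ⟨t, rfl⟩ := Nat.exists_eq_add_of_le' (show 1 ≤ q by omega)
          rw [show t + 1 - 1 = t by omega]
          ring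
        rw [this]
        exact h.mul_right _
    · apply h6
      have : q ^ 6 + 1 = (q ^ 2 * (q ^ 2 - 1) + 1) * (q ^ 2 + 1) := by
        obtain ⟨t, rfl⟩ := Nat.exists_eq_add_of_le' (show 1 ≤ q by omega)
        rw [show (t + 1) ^ 2 - 1 = t ^ 2 + 2 * t by
          rw [show (t + 1) ^ 2 = t ^ 2 + 2 * t + 1 by ring]; rfl]
        ring
      rw [this]
      exact h.mul_right _

end

end

end Cfsg.Agent.H122.S5
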